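import Cfsg.Agent.Helper56.He.MultChainData

/-! # Chain certificate for the Held group along `17 < L2(16) < Sp4(4) < He` (helper56)

Generated data in the format of `Cfsg.Agent.Helper89.Chain`: labelled coset tables for the four
levels (17, 240, 240 and 4116 rows) on generators `x, u, v, w` of orders `17, 5, 3, 3`
(symbols `2 i`, `2 i + 1` for the `i`-th generator and its inverse).  This file: deduction steps of the last level, part 0. -/

set_option autoImplicit false
set_option maxRecDepth 100000

namespace Cfsg.Agent.Helper56.HeMult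

open Cfsg.Agent.Helper89

theorem run3_0 : LT.runSteps (tbl 13 8 tab3) (tbl 21 8 ltab3) 8 (Level.relsOf ex3 ws3) E3_0 steps3_0 = some E3_1 := by
  decide +kernel

theorem run3_1 : LT.runSteps (tbl 13 8 tab3) (tbl 21 8 ltab3) 8 (Level.relsOf ex3 ws3) E3_1 steps3_1 = some E3_2 := by
  decide +kernel

theorem run3_2 : LT.runSteps (tbl 13 8 tab3) (tbl 21 8 ltab3) 8 (Level.relsOf ex3 ws3) E3_2 steps3_2 = some E3_3 := by
  decide +kernel

theorem run3_3 : LT.runSteps (tbl 13 8 tab3) (tbl 21 8 ltab3) 8 (Level.relsOf ex3 ws3) E3_3 steps3_3 = some E3_4 := by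
  decide +kernel

end Cfsg.Agent.Helper56.HeMult
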