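import Cfsg.Agent.Helper56.He.MultChainPre
import Cfsg.Agent.Helper56.He.MultChainRun0
import Cfsg.Agent.Helper56.He.MultChainRun1
import Cfsg.Agent.Helper56.He.MultChainRun2

/-! # Chain certificate for the Held group along `17 < L2(16) < Sp4(4) < He` (helper56)

Generated data in the format of `Cfsg.Agent.Helper89.Chain`: labelled coset tables for the four
levels (17, 240, 240 and 4116 rows) on generators `x, u, v, w` of orders `17, 5, 3, 3`
(symbols `2 i`, `2 i + 1` for the `i`-th generator and its inverse).  This file: the assembled certificate. -/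

set_option autoImplicit false
set_option maxRecDepth 100000

namespace Cfsg.Agent.Helper56.HeMult

open Cfsg.Agent.Helper89

def L3 : Chain.LD where
  n := 4116
  k := 8
  k₀ := 6
  T := tbl 13 8 tab3
  Lb := tbl 21 8 ltab3
  par := vec 13 par3
  gam := vec 4 gam3
  S := [0, 1, 2, 3, 4, 5]
  ex := ex3
  ws := ws3
  steps := steps3_0 ++ steps3_1 ++ steps3_2 ++ steps3_3 ++ steps3_4 ++ steps3_5 ++ steps3_6 ++ steps3_7 ++ steps3_8 ++ steps3_9 ++ steps3_10 ++ steps3_11 ++ steps3_12
  E₀ := E3_0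
  cl := cl3

theorem L3_valid : L3.Valid :=
  ⟨pre3_ok, (LT.runSteps_append _ _ _ _ _ _ _ _ _ (LT.runSteps_append _ _ _ _ _ _ _ _ _ (LT.runSteps_append _ _ _ _ _ _ _ _ _ (LT.runSteps_append _ _ _ _ _ _ _ _ _ (LT.runSteps_append _ _ _ _ _ _ _ _ _ (LT.runSteps_append _ _ _ _ _ _ _ _ _ (LT.runSteps_append _ _ _ _ _ _ _ _ _ (LT.runSteps_append _ _ _ _ _ _ _ _ _ (LT.runSteps_append _ _ _ _ _ _ _ _ _ (LT.runSteps_append _ _ _ _ _ _ _ _ _ (LT.runSteps_append _ _ _ _ _ _ _ _ _ (LT.runSteps_append _ _ _ _ _ _ _ _ _ run3_0 run3_1) run3_2) run3_3) run3_4) run3_5) run3_6) run3_7) run3_8) run3_9) run3_10) run3_11) run3_12), cl3_ok, by decide, by decide, by decide⟩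

def Ls : List Chain.LD := [L0, L1, L2, L3]

theorem valid : ∀ d ∈ Ls, d.Valid := by
  intro d hd
  simp only [Ls, List.mem_cons, List.not_mem_nil, or_false] at hd
  rcases hd with rfl | rfl | rfl | rfl
  · exact L0_valid
  · exact L1_valid
  · exact L2_valid
  · exact L3_valid

theorem chained : Chain.Chained (Chain.powW ps) [] 0 Ls := by
  refine ⟨rfl, by decide, ?_⟩
  refine ⟨rfl, by decide, ?_⟩
  refine ⟨rfl, by decide, ?_⟩
  refine ⟨rfl, by decide, ?_⟩
  trivial

theorem lastK_eq : Chain.lastK 0 Ls = 8 := rfl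

theorem prodN_eq : Chain.prodN Ls = 4030387200 := by decide

theorem ps_odd : ∀ p ∈ ps, Odd p.2 := by decide

end Cfsg.Agent.Helper56.HeMult
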