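/-!
# Data for the Schur multiplier of the Held group (helper56)

`symW`: the eight symbols `x, x⁻¹, u, u⁻¹, v, v⁻¹, w, w⁻¹` of the chain certificate as words in the
seven generating involutions `a, ..., g` (letters `0, ..., 6`) of the Held group; `genW`: the seven
involutions as words in the symbols; `a5, b5, t5`: a Sylow 5-subgroup `⟨a5, b5⟩` and an involution
inverting `a5` and centralising `b5`; `a3, b3, n3`: generators of a Sylow 3-subgroup and an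
involution inverting both; `a7, b7, d7`: generators of a Sylow 7-subgroup and an element squaring
`a7` and centralising `b7`.
-/

set_option autoImplicit false

namespace Cfsg.Agent.Helper56.HeMult

def symW : List (List Nat) :=
  [[3, 6, 5, 1, 2, 3, 6, 1, 2, 1],
  [1, 2, 1, 6, 3, 2, 1, 5, 6, 3],
  [3, 2, 3, 5, 3, 2],
  [2, 3, 5, 3, 2, 3],
  [4, 3],
  [3, 4],
  [1, 2],
  [2, 1]]

def genW : List (List Nat) :=
  [[2, 0, 0, 4, 1, 1, 3, 1, 1, 3, 5, 0, 0],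
  [4, 3, 0, 0, 4, 1, 3, 3, 0, 0, 4, 1, 7],
  [4, 3, 0, 0, 4, 1, 3, 3, 0, 0, 4, 1],
  [4, 2, 5, 3, 4, 2],
  [2, 4, 3, 5, 2],
  [5, 2, 4, 1, 1, 1, 3, 1, 1, 4, 3],
  [5, 0, 0, 5, 2, 0, 4, 1, 1, 1, 3, 6, 1, 7, 1, 6]]

def a5 : List Nat := [5, 3, 2, 3, 5, 2, 3, 2, 3, 5, 2, 3, 2, 3, 2, 0, 5, 6, 1, 2, 3, 5, 6, 2, 1]

def b5 : List Nat := [3, 2, 0]

def t5 : List Nat := [6, 5, 1, 2, 3, 6, 5, 2, 1, 0]

def a3 : List Nat := [1, 6, 5, 2, 3, 6, 5, 2, 1]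

def b3 : List Nat := [5, 3, 6, 2, 3, 2, 3, 6, 3, 2, 3, 5, 3, 4, 3, 0, 1, 0, 6, 5, 2, 3, 6, 5, 2, 1, 5, 3, 6, 2, 3, 2, 3, 6, 3, 2, 3, 5, 3, 1, 0, 1]

def n3 : List Nat := [0]

def a7 : List Nat := [1, 0, 2, 3, 2, 1, 3, 2, 5, 3, 2, 3, 6, 4, 3, 1, 2, 3, 6, 2, 3, 4, 1, 2]

def b7 : List Nat := [6, 5, 3]

def d7 : List Nat := [2, 3, 2, 5, 3, 2, 3, 5, 2, 3, 2, 3, 6, 2, 6, 5, 3, 1, 0]

end Cfsg.Agent.Helper56.HeMult
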