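import Cfsg.Agent.Helper89.Stem5

/-!
# Stem extensions: extraspecial Sylow 7-subgroups of order 343 (helper56)

A variant of the extraspecial transfer lemma of `Cfsg.Agent.Helper89.Stem5` for groups with no
element inverting both generators: if `a, b` have order `p` (a prime other than 3), their commutator
is non-trivial and commutes with both, and some element `d` squares `a` and centralises `b`, then in
a central extension the commutator subgroup of a subgroup lying over `⟨a, b⟩` meets the kernel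
trivially (`Stem7.extraspecial_core_diag`).

`Stem7.not_dvd_card_ker_of_extraspecial7`: with such `a, b, d` for `p = 7` and `7 ^ 4 ∤ |G|`, 7 does
not divide the order of the kernel of a stem extension of `G`.  The bound `|⟨a, b⟩| ∣ 343` comes
from a chain certificate (`E343`).
-/

set_option autoImplicit false
set_option maxRecDepth 100000

namespace Cfsg.Agent.Helper56.E343

open Cfsg.Agent.Helper89

def X0 : Chain.LD where
  n := 7
  k := 2
  k₀ := 0
  T := tbl 3 2 0x2c7b23600d1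
  Lb := tbl 1 2 0x0
  par := vec 3 0x11a200
  gam := vec 4 0x1010100
  S := []
  ex := [[0, 0, 0, 0, 0, 0, 0]]
  ws := []
  steps := [
  (0, 0, 3)]
  E₀ := 0x1bff
  cl := []

theorem X0_valid : X0.Valid :=
  ⟨by decide +kernel, by decide +kernel, by decide +kernel, by decide, by decide, by decide⟩

def X1 : Chain.LD where
  n := 49
  k := 4
  k₀ := 2
  T := tbl 6 4 0x95dc30a19bef8e99d892662a857ae7896aac715b6bba8595a6f954813b2eb654d79b04a87ed7116ee46042b85c3ec8223678e17643cd48c79ec1f64c2aa8a466329050969abdb25d448badb14988ad2229a87a535daa079c656659e1a51589233226c526115f18438e1207ca7907441c32cb0dc35b68f0d96025d654b5024ce09205140f38d3012ca0492001c6005103081000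
  Lb := tbl 1 4 0x0
  par := vec 6 0x1d6586175955544d34914503cd34c30a2892482081c71861451441040c30c2082041040000
  gam := vec 4 0x3310333113001022213120303103130210321320310210320
  S := [0, 1]
  ex := [[0, 0, 0, 0, 0, 0, 0], [2, 2, 2, 2, 2, 2, 2], [0, 2, 1, 3, 0, 2, 0, 3, 1, 1], [0, 2, 1, 3, 2, 2, 0, 3, 1, 3]]
  ws := []
  steps := [
  (0, 2, 4), (0, 3, 6), (21, 3, 0), (0, 1, 3), (1, 0, 3), (1, 2, 7), (3, 2, 7), (1, 3, 6), (4, 2, 3), (11, 3, 0), (12, 2, 3), (4, 3, 6),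
  (3, 3, 7), (2, 0, 3), (41, 2, 3), (42, 3, 0), (23, 2, 7), (7, 3, 9), (44, 3, 0), (21, 2, 7), (9, 2, 6), (26, 3, 0), (3, 1, 2), (20, 3, 9),
  (14, 2, 4), (29, 2, 2), (12, 3, 5), (5, 2, 6), (10, 2, 6), (10, 3, 7), (24, 3, 1), (41, 3, 9), (46, 3, 9), (8, 2, 8), (23, 0, 6), (42, 2, 8),
  (47, 3, 0), (26, 1, 3), (40, 3, 9), (15, 2, 6), (13, 3, 5), (30, 2, 4), (30, 1, 6), (6, 3, 9), (31, 3, 5), (13, 1, 1), (5, 3, 6), (16, 3, 6),
  (37, 3, 9)]
  E₀ := 0x44124441142212888149824a79ae3d3b564eb4dbfbbffffff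
  cl := []

theorem X1_valid : X1.Valid :=
  ⟨by decide +kernel, by decide +kernel, by decide +kernel, by decide, by decide, by decide⟩

def Ls : List Chain.LD := [X0, X1]

/-- The relators: `a ^ 7`, `b ^ 7`, `[[a, b], a]`, `[[a, b], b]`. -/
def E : List (List ℕ) :=
  [[0, 0, 0, 0, 0, 0, 0], [2, 2, 2, 2, 2, 2, 2], [0, 2, 1, 3, 0, 2, 0, 3, 1, 1],
    [0, 2, 1, 3, 2, 2, 0, 3, 1, 3]]

theorem valid : ∀ d ∈ Ls, d.Valid := by
  intro d hd
  simp only [Ls, List.mem_cons, List.not_mem_nil, or_false] at hd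
  rcases hd with rfl | rfl
  · exact X0_valid
  · exact X1_valid

theorem chained : Chain.Chained E [] 0 Ls := by
  refine ⟨rfl, by decide, ?_⟩
  refine ⟨rfl, by decide, ?_⟩
  trivial

theorem ws_nil : ∀ d ∈ Ls, ∀ w ∈ d.ws, False := by decide

end Cfsg.Agent.Helper56.E343

namespace Cfsg.Agent.Helper56.Stem7

open Subgroup Cfsg.Agent.Helper89 Cfsg.Agent.Helper89.Stem
open scoped commutatorElement

/-- Lifts `a', b'` of `a, b` to a central extension: if the commutator of `a, b` commutes with both,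
`a` has order dividing `p` (coprime to 3) and some `d` squares `a` and centralises `b`, then the
commutator of the lifts commutes with both lifts. -/
theorem lift_comm_diag {Γ G : Type*} [Group Γ] [Group G] (σ : Γ →* G) (hc : σ.ker ≤ center Γ)
    {p : ℕ} (hp3 : Nat.Coprime 3 p) {a b d : G} (ha : a ^ p = 1)
    (hca : (a * b * a⁻¹ * b⁻¹) * a = a * (a * b * a⁻¹ * b⁻¹))
    (hcb : (a * b * a⁻¹ * b⁻¹) * b = b * (a * b * a⁻¹ * b⁻¹))
    (hda : d * a * d⁻¹ = a * a) (hdb : d * b * d⁻¹ = b) {a' b' d' : Γ} (hA : σ a' = a)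
    (hB : σ b' = b) (hD : σ d' = d) :
    a' * (a' * b' * a'⁻¹ * b'⁻¹) = (a' * b' * a'⁻¹ * b'⁻¹) * a' ∧
      b' * (a' * b' * a'⁻¹ * b'⁻¹) = (a' * b' * a'⁻¹ * b'⁻¹) * b' := by
  have cen : ∀ {k : Γ}, σ k = 1 → ∀ g, k * g = g * k := fun hk g =>
    (Subgroup.mem_center_iff.1 (hc (MonoidHom.mem_ker.2 hk)) g).symm
  obtain ⟨z, hz⟩ : ∃ z : Γ, z = a' * b' * a'⁻¹ * b'⁻¹ := ⟨_, rfl⟩
  rw [← hz]
  have hZ : σ z = a * b * a⁻¹ * b⁻¹ := by
    rw [hz, map_mul, map_mul, map_mul, map_inv, map_inv, hA, hB]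
  obtain ⟨w, hw⟩ : ∃ w : Γ, w = z * a' * z⁻¹ * a'⁻¹ := ⟨_, rfl⟩
  obtain ⟨v, hv⟩ : ∃ v : Γ, v = z * b' * z⁻¹ * b'⁻¹ := ⟨_, rfl⟩
  have hwK : σ w = 1 := by
    rw [hw, map_mul, map_mul, map_mul, map_inv, map_inv, hZ, hA, hca]; group
  have hvK : σ v = 1 := by
    rw [hv, map_mul, map_mul, map_mul, map_inv, map_inv, hZ, hB, hcb]; group
  have hwc := cen hwK
  have hvc := cen hvK
  have hwi : ∀ g, w⁻¹ * g = g * w⁻¹ := fun g => by
    rw [eq_mul_inv_iff_mul_eq, mul_assoc, ← hwc g, inv_mul_cancel_left]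
  have hww : ∀ g, w * w * g = g * (w * w) := fun g => by
    rw [mul_assoc, hwc g, ← mul_assoc, hwc g, mul_assoc]
  have hk₁ : σ ((a' * a')⁻¹ * (d' * a' * d'⁻¹)) = 1 := by
    rw [map_mul, map_inv, map_mul, map_mul, map_mul, map_inv, hA, hD, hda, inv_mul_cancel]
  have hk₂ : σ (b'⁻¹ * (d' * b' * d'⁻¹)) = 1 := by
    rw [map_mul, map_mul, map_mul, map_inv, map_inv, hB, hD, hdb, inv_mul_cancel]
  have e1 : d' * a' * d'⁻¹ = (a' * a') * ((a' * a')⁻¹ * (d' * a' * d'⁻¹)) := by group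
  have e2 : d' * b' * d'⁻¹ = b' * (b'⁻¹ * (d' * b' * d'⁻¹)) := by group
  -- the conjugate of `z` by `d'`
  have h3 : d' * z * d'⁻¹ = (d' * a' * d'⁻¹) * (d' * b' * d'⁻¹) * (d' * a' * d'⁻¹)⁻¹ *
      (d' * b' * d'⁻¹)⁻¹ := by rw [hz]; group
  have h4 : d' * z * d'⁻¹ = (a' * a') * b' * (a' * a')⁻¹ * b'⁻¹ := by
    rw [h3, e1, e2, comm_central_mul (cen hk₁) (cen hk₂)]
  have h5 : (a' * a') * b' * (a' * a')⁻¹ * b'⁻¹ = (a' * z * a'⁻¹) * z := by rw [hz]; group
  have h6 : a' * z * a'⁻¹ = w⁻¹ * z := by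
    have e : w⁻¹ = a' * z * a'⁻¹ * z⁻¹ := by rw [hw]; group
    rw [e]; group
  have h7 : d' * z * d'⁻¹ = z * z * w⁻¹ := by
    rw [h4, h5, h6, mul_assoc, hwi (z * z)]
  -- `w ^ p = 1`
  have hwp : w ^ p = 1 := by
    have h1 := pow_conj (hwi a') h6 p
    have h2 : σ (a' ^ p) = 1 := by rw [map_pow, hA, ha]
    rw [cen h2 z, mul_inv_cancel_right] at h1
    have h8 : w⁻¹ ^ p = 1 := mul_eq_right.1 h1.symm
    rwa [inv_pow, inv_eq_one] at h8
  -- `w = w ^ 4`
  have hc1 : z * a' * z⁻¹ = w * a' := by rw [hw]; group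
  have hc2 : z * (a' * a') * z⁻¹ = w * w * (a' * a') := by
    calc z * (a' * a') * z⁻¹ = (z * a' * z⁻¹) * (z * a' * z⁻¹) := by group
      _ = (w * a') * (w * a') := by rw [hc1]
      _ = w * (a' * w) * a' := by group
      _ = w * (w * a') * a' := by rw [hwc a']
      _ = w * w * (a' * a') := by group
  have hc3 : (z * z) * (a' * a') * (z * z)⁻¹ * (a' * a')⁻¹ = w * w * (w * w) := by
    calc (z * z) * (a' * a') * (z * z)⁻¹ * (a' * a')⁻¹
        = z * (z * (a' * a') * z⁻¹) * z⁻¹ * (a' * a')⁻¹ := by group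
      _ = z * (w * w * (a' * a')) * z⁻¹ * (a' * a')⁻¹ := by rw [hc2]
      _ = (z * (w * w)) * (a' * a') * z⁻¹ * (a' * a')⁻¹ := by group
      _ = (w * w * z) * (a' * a') * z⁻¹ * (a' * a')⁻¹ := by rw [hww z]
      _ = w * w * (z * (a' * a') * z⁻¹) * (a' * a')⁻¹ := by group
      _ = w * w * (w * w * (a' * a')) * (a' * a')⁻¹ := by rw [hc2]
      _ = w * w * (w * w) := by group
  have hw4 : w = w * w * (w * w) := by
    have h8 : d' * w * d'⁻¹ = w := by rw [← hwc d', mul_inv_cancel_right]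
    have h9 : d' * w * d'⁻¹ = (d' * z * d'⁻¹) * (d' * a' * d'⁻¹) * (d' * z * d'⁻¹)⁻¹ *
        (d' * a' * d'⁻¹)⁻¹ := by rw [hw]; group
    rw [h7, e1, comm_central_mul hwi (cen hk₁), hc3] at h9
    exact h8.symm.trans h9
  have hw3 : w ^ 3 = 1 := by
    have e : w * (w * w * w) = w * 1 := by
      rw [mul_one]
      calc w * (w * w * w) = w * w * (w * w) := by group
        _ = w := hw4.symm
    rw [pow_succ, pow_two]
    exact mul_left_cancel e
  have hw1 : w = 1 := by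
    have h1 : orderOf w ∣ p := orderOf_dvd_of_pow_eq_one hwp
    have h2 : orderOf w ∣ 3 := orderOf_dvd_of_pow_eq_one hw3
    have h6 : orderOf w ∣ 1 := by
      have := Nat.dvd_gcd h2 h1
      rwa [Nat.Coprime.gcd_eq_one hp3] at this
    exact orderOf_eq_one_iff.1 (Nat.dvd_one.1 h6)
  -- `v = v ^ 2`
  have hd1 : z * b' * z⁻¹ = v * b' := by rw [hv]; group
  have hd2 : (z * z) * b' * (z * z)⁻¹ * b'⁻¹ = v * v := by
    calc (z * z) * b' * (z * z)⁻¹ * b'⁻¹ = z * (z * b' * z⁻¹) * z⁻¹ * b'⁻¹ := by group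
      _ = z * (v * b') * z⁻¹ * b'⁻¹ := by rw [hd1]
      _ = (z * v) * b' * z⁻¹ * b'⁻¹ := by group
      _ = (v * z) * b' * z⁻¹ * b'⁻¹ := by rw [hvc z]
      _ = v * (z * b' * z⁻¹) * b'⁻¹ := by group
      _ = v * (v * b') * b'⁻¹ := by rw [hd1]
      _ = v * v := by group
  have hv1 : v = 1 := by
    have h8 : d' * v * d'⁻¹ = v := by rw [← hvc d', mul_inv_cancel_right]
    have h9 : d' * v * d'⁻¹ = (d' * z * d'⁻¹) * (d' * b' * d'⁻¹) * (d' * z * d'⁻¹)⁻¹ *
        (d' * b' * d'⁻¹)⁻¹ := by rw [hv]; group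
    rw [h7, e2, comm_central_mul hwi (cen hk₂), hd2, h8] at h9
    have e : v * 1 = v * v := by rw [mul_one]; exact h9
    exact (mul_left_cancel e).symm
  constructor
  · rw [hw1] at hc1
    rw [one_mul] at hc1
    exact (mul_inv_eq_iff_eq_mul.1 hc1).symm
  · rw [hv1] at hd1
    rw [one_mul] at hd1
    exact (mul_inv_eq_iff_eq_mul.1 hd1).symm

theorem extraspecial_core_diag {Γ G : Type*} [Group Γ] [Group G] (p : ℕ) [Fact p.Prime]
    (hp3 : Nat.Coprime 3 p) (σ : Γ →* G)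
    (hσ : Function.Surjective σ) (hc : σ.ker ≤ center Γ) {a b d : G} (ha : a ^ p = 1)
    (hb : b ^ p = 1) (hne : a * b ≠ b * a)
    (hca : (a * b * a⁻¹ * b⁻¹) * a = a * (a * b * a⁻¹ * b⁻¹))
    (hcb : (a * b * a⁻¹ * b⁻¹) * b = b * (a * b * a⁻¹ * b⁻¹))
    (hda : d * a * d⁻¹ = a * a) (hdb : d * b * d⁻¹ = b) (P : Subgroup Γ)
    (hP : P.map σ ≤ closure {a, b}) :
    ∀ z : P, z ∈ commutator P → σ (z : Γ) = 1 → z = 1 := by
  obtain ⟨a', hA⟩ := hσ a
  obtain ⟨b', hB⟩ := hσ b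
  obtain ⟨d', hD⟩ := hσ d
  have cen : ∀ {k : Γ}, σ k = 1 → ∀ g, k * g = g * k := fun hk g =>
    (Subgroup.mem_center_iff.1 (hc (MonoidHom.mem_ker.2 hk)) g).symm
  have hC : σ (a' * b' * a'⁻¹ * b'⁻¹) = a * b * a⁻¹ * b⁻¹ := by
    rw [map_mul, map_mul, map_mul, map_inv, map_inv, hA, hB]
  obtain ⟨hac, hbc⟩ := lift_comm_diag σ hc hp3 ha hca hcb hda hdb hA hB hD
  -- the `p`-th power of the commutator
  have hc3' : (a' * b' * a'⁻¹ * b'⁻¹) ^ p = 1 := by
    have h1 := pow_conj hac.symm (show a' * b' * a'⁻¹ = (a' * b' * a'⁻¹ * b'⁻¹) * b' by group) p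
    have h2 : σ (a' ^ p) = 1 := by rw [map_pow, hA, ha]
    rw [cen h2 b', mul_inv_cancel_right] at h1
    exact mul_eq_right.1 h1.symm
  have hc3 : (a * b * a⁻¹ * b⁻¹) ^ p = 1 := by
    have h1 := pow_conj hca (show a * b * a⁻¹ = (a * b * a⁻¹ * b⁻¹) * b by group) p
    rw [ha, one_mul, inv_one, mul_one] at h1
    exact mul_eq_right.1 h1.symm
  have hc1 : a * b * a⁻¹ * b⁻¹ ≠ 1 := by
    intro h
    apply hne
    calc a * b = a * b * a⁻¹ * b⁻¹ * (b * a) := by group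
      _ = b * a := by rw [h, one_mul]
  have hord : orderOf (a * b * a⁻¹ * b⁻¹) = p :=
    orderOf_eq_prime hc3 hc1
  -- commutators of the preimage
  have hcomm : ∀ x ∈ closure ({a', b'} : Set Γ), ∀ y ∈ closure ({a', b'} : Set Γ),
      x * y * x⁻¹ * y⁻¹ ∈ zpowers (a' * b' * a'⁻¹ * b'⁻¹) := by
    apply commutator_mem_of_central
    · intro m hm s hs
      obtain ⟨k, rfl⟩ := mem_zpowers_iff.1 hm
      simp only [Set.mem_insert_iff, Set.mem_singleton_iff] at hs
      rcases hs with rfl | rfl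
      · exact (Commute.zpow_left (show Commute _ s from hac.symm) k).eq
      · exact (Commute.zpow_left (show Commute _ s from hbc.symm) k).eq
    · intro s hs s' hs'
      simp only [Set.mem_insert_iff, Set.mem_singleton_iff] at hs hs'
      rcases hs with rfl | rfl <;> rcases hs' with rfl | rfl
      · simpa using Subgroup.one_mem _
      · exact mem_zpowers _
      · have e : s * s' * s⁻¹ * s'⁻¹ = (s' * s * s'⁻¹ * s⁻¹)⁻¹ := by group
        rw [e]
        exact inv_mem (mem_zpowers _)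
      · simpa using Subgroup.one_mem _
  have hdec : ∀ x ∈ P, ∃ y ∈ closure ({a', b'} : Set Γ), ∃ k : Γ, σ k = 1 ∧ x = y * k := by
    intro x hx
    have h1 : σ x ∈ (closure ({a', b'} : Set Γ)).map σ := by
      rw [MonoidHom.map_closure, Set.image_pair, hA, hB]
      exact hP (Subgroup.mem_map_of_mem σ hx)
    obtain ⟨y, hy, hyx⟩ := h1
    refine ⟨y, hy, y⁻¹ * x, ?_, by group⟩
    rw [map_mul, map_inv, hyx, inv_mul_cancel]
  have hle : commutator P ≤ (zpowers (a' * b' * a'⁻¹ * b'⁻¹)).comap P.subtype := by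
    rw [commutator_eq_closure, closure_le]
    rintro _ ⟨x, y, rfl⟩
    obtain ⟨x₁, hx₁, k₁, hk₁, hx⟩ := hdec x x.2
    obtain ⟨y₁, hy₁, k₂, hk₂, hy⟩ := hdec y y.2
    show (P.subtype ⁅x, y⁆) ∈ zpowers (a' * b' * a'⁻¹ * b'⁻¹)
    rw [commutatorElement_def]
    simp only [map_mul, map_inv, Subgroup.subtype_apply]
    rw [hx, hy, comm_central_mul (cen hk₁) (cen hk₂)]
    exact hcomm x₁ hx₁ y₁ hy₁
  intro z hz hz1
  have h1 : (z : Γ) ∈ zpowers (a' * b' * a'⁻¹ * b'⁻¹) := hle hz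
  obtain ⟨k, hk⟩ := mem_zpowers_iff.1 h1
  have h2 : (a * b * a⁻¹ * b⁻¹) ^ k = 1 := by
    rw [← hC, ← map_zpow, hk, hz1]
  have h3 : ((p : ℕ) : ℤ) ∣ k := by
    rw [← hord]; exact orderOf_dvd_iff_zpow_eq_one.2 h2
  obtain ⟨m, rfl⟩ := h3
  apply Subtype.ext
  rw [← hk, zpow_mul, zpow_natCast, hc3', one_zpow]
  rfl

theorem card_pair_dvd7 {G : Type*} [Group G] [Finite G] (a b : G) (ha : a ^ 7 = 1)
    (hb : b ^ 7 = 1) (hca : (a * b * a⁻¹ * b⁻¹) * a = a * (a * b * a⁻¹ * b⁻¹))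
    (hcb : (a * b * a⁻¹ * b⁻¹) * b = b * (a * b * a⁻¹ * b⁻¹)) :
    Nat.card (closure ({a, b} : Set G)) ∣ 343 := by
  rw [← closure_gl_pair]
  have hE : ∀ w ∈ E343.E, ev (gl [a, b]) w = 1 := by
    intro ρ hρ
    simp only [E343.E, List.mem_cons, List.not_mem_nil, or_false] at hρ
    rcases hρ with rfl | rfl | rfl | rfl
    · show a * (a * (a * (a * (a * (a * (a * 1)))))) = 1
      have e : a * (a * (a * (a * (a * (a * (a * 1)))))) = a ^ 7 := by
        rw [mul_one, pow_succ, pow_succ, pow_succ, pow_succ, pow_succ, pow_two]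
        simp only [mul_assoc]
      rw [e, ha]
    · show b * (b * (b * (b * (b * (b * (b * 1)))))) = 1
      have e : b * (b * (b * (b * (b * (b * (b * 1)))))) = b ^ 7 := by
        rw [mul_one, pow_succ, pow_succ, pow_succ, pow_succ, pow_succ, pow_two]
        simp only [mul_assoc]
      rw [e, hb]
    · show a * (b * (a⁻¹ * (b⁻¹ * (a * (b * (a * (b⁻¹ * (a⁻¹ * (a⁻¹ * 1))))))))) = 1
      have e : a * (b * (a⁻¹ * (b⁻¹ * (a * (b * (a * (b⁻¹ * (a⁻¹ * (a⁻¹ * 1))))))))) =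
          (a * b * a⁻¹ * b⁻¹) * a * (a * b * a⁻¹ * b⁻¹)⁻¹ * a⁻¹ := by group
      rw [e, hca]; group
    · show a * (b * (a⁻¹ * (b⁻¹ * (b * (b * (a * (b⁻¹ * (a⁻¹ * (b⁻¹ * 1))))))))) = 1
      have e : a * (b * (a⁻¹ * (b⁻¹ * (b * (b * (a * (b⁻¹ * (a⁻¹ * (b⁻¹ * 1))))))))) =
          (a * b * a⁻¹ * b⁻¹) * b * (a * b * a⁻¹ * b⁻¹)⁻¹ * b⁻¹ := by group
      rw [e, hcb]; group
  have h := Chain.gchain (gl [a, b]) (gl_inv _) E343.E hE E343.Ls [] 0 E343.valid E343.chained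
    (by simp) (fun d hd w hw => (E343.ws_nil d hd w hw).elim)
  have h0 : Nat.card (closure (gl [a, b] '' Set.Iio 0)) = 1 := by
    have : (gl [a, b] '' Set.Iio 0) = ∅ := by
      ext x; simp
    rw [this, Subgroup.closure_empty, Subgroup.card_bot]
  rw [h0, mul_one] at h
  exact h

/-- Extraspecial Sylow 7-subgroup of order 343 with an element squaring one generator and
centralising the other: 7 does not divide the order of the kernel of a stem extension. -/
theorem not_dvd_card_ker_of_extraspecial7 {Γ G : Type*} [Group Γ] [Finite Γ] [Group G]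
    [Finite G] (σ : Γ →* G) (hσ : Function.Surjective σ) (hc : σ.ker ≤ center Γ)
    (hd : σ.ker ≤ commutator Γ) (a b d : G) (ha : a ^ 7 = 1) (hb : b ^ 7 = 1)
    (hne : a * b ≠ b * a)
    (hca : (a * b * a⁻¹ * b⁻¹) * a = a * (a * b * a⁻¹ * b⁻¹))
    (hcb : (a * b * a⁻¹ * b⁻¹) * b = b * (a * b * a⁻¹ * b⁻¹))
    (hda : d * a * d⁻¹ = a * a) (hdb : d * b * d⁻¹ = b) (hG : ¬ 7 ^ 4 ∣ Nat.card G) :
    ¬ 7 ∣ Nat.card σ.ker := by
  have hfact : Fact (Nat.Prime 7) := ⟨by norm_num⟩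
  have hp7 : Nat.Prime 7 := by norm_num
  apply not_dvd_card_ker σ hc hd 7
  intro P
  have h343 := card_pair_dvd7 a b ha hb hca hcb
  have haP : a ∈ closure ({a, b} : Set G) := subset_closure (by simp)
  have hbP : b ∈ closure ({a, b} : Set G) := subset_closure (by simp)
  have hncomm : ¬ ∀ x y : closure ({a, b} : Set G), x * y = y * x := by
    intro h
    exact hne (congrArg Subtype.val (h ⟨a, haP⟩ ⟨b, hbP⟩))
  have hcard : Nat.card (closure ({a, b} : Set G)) = 7 ^ 3 := by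
    have h343' : Nat.card (closure ({a, b} : Set G)) ∣ 7 ^ 3 := h343
    obtain ⟨k, hk, hk'⟩ := (Nat.dvd_prime_pow hp7).1 h343'
    interval_cases k
    · exfalso
      apply hncomm
      have : Subsingleton (closure ({a, b} : Set G)) :=
        (Nat.card_eq_one_iff_unique.1 (by simpa using hk')).1
      intro x y
      rw [Subsingleton.elim x y]
    · exfalso
      apply hncomm
      have : IsCyclic (closure ({a, b} : Set G)) :=
        isCyclic_of_prime_card (p := 7) (by simpa using hk')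
      intro x y
      exact (IsCyclic.commGroup (α := closure ({a, b} : Set G))).mul_comm x y
    · exfalso
      apply hncomm
      intro x y
      exact IsPGroup.commutative_of_card_eq_prime_sq (p := 7) hk' x y
    · exact hk'
  have hpg : IsPGroup 7 (closure ({a, b} : Set G)) := IsPGroup.of_card hcard
  obtain ⟨Q₀, hQ₀⟩ := hpg.exists_le_sylow
  obtain ⟨m, hm⟩ := IsPGroup.iff_card.1 Q₀.isPGroup'
  have hm3 : m ≤ 3 := by
    by_contra hcon
    have h1 : 7 ^ m ∣ Nat.card G := hm ▸ Subgroup.card_subgroup_dvd_card _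
    exact hG ((pow_dvd_pow 7 (by omega : 4 ≤ m)).trans h1)
  have hQeq : closure ({a, b} : Set G) = (Q₀ : Subgroup G) := by
    apply Subgroup.eq_of_le_of_card_ge hQ₀
    rw [hcard, hm]
    exact Nat.pow_le_pow_right (by norm_num) hm3
  have hpgP : IsPGroup 7 ((P : Subgroup Γ).map σ) := P.isPGroup'.map σ
  obtain ⟨Q, hQ⟩ := hpgP.exists_le_sylow
  obtain ⟨g, hg⟩ := MulAction.exists_smul_eq G Q₀ Q
  have hmap : (P : Subgroup Γ).map σ ≤
      closure {MulAut.conj g a, MulAut.conj g b} := by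
    intro y hy
    have h1 : y ∈ (Q : Subgroup G) := hQ hy
    rw [← hg, Sylow.coe_subgroup_smul, Subgroup.mem_pointwise_smul_iff_inv_smul_mem,
      ← hQeq] at h1
    have h2 : (MulAut.conj g).toMonoidHom ((MulAut.conj g)⁻¹ • y) ∈
        (closure ({a, b} : Set G)).map (MulAut.conj g).toMonoidHom :=
      Subgroup.mem_map_of_mem _ h1
    rw [MonoidHom.map_closure, Set.image_pair] at h2
    have e : (MulAut.conj g).toMonoidHom ((MulAut.conj g)⁻¹ • y) = y := by
      simp only [MulAut.smul_def, MulEquiv.coe_toMonoidHom, MulAut.conj_apply,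
        MulAut.conj_inv_apply]
      group
    rw [e] at h2
    exact h2
  have hφ : ∀ {x y : G}, x = y → MulAut.conj g x = MulAut.conj g y := fun h => by rw [h]
  apply extraspecial_core_diag 7 (by decide) σ hσ hc (a := MulAut.conj g a)
    (b := MulAut.conj g b) (d := MulAut.conj g d)
    (by rw [← map_pow, ha, map_one]) (by rw [← map_pow, hb, map_one])
    (by
      intro h
      apply hne
      apply (MulAut.conj g).injective
      rw [map_mul, map_mul, h])
    (by simpa only [map_mul, map_inv] using hφ hca)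
    (by simpa only [map_mul, map_inv] using hφ hcb)
    (by simpa only [map_mul, map_inv] using hφ hda)
    (by simpa only [map_mul, map_inv] using hφ hdb)
    (P : Subgroup Γ) hmap

end Cfsg.Agent.Helper56.Stem7
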