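import Cfsg.Agent.Helper28.HE.Simple
import Cfsg.Agent.Helper56.He.MultChain
import Cfsg.Agent.Helper56.He.MultData
import Cfsg.Agent.Helper56.He.Stem7

/-!
# The Schur multiplier of the Held group is trivial (helper56)

`he_mult : HasCyclicSchurMultiplier He 1`, with the stem-extension toolkit of helper89 and the
permutation representation of the presented group `He` on 8330 points of helper28: the primes
`p ≥ 11` by cyclic Sylow subgroups, `p = 5`, `p = 3` and `p = 7` by explicit Sylow subgroups with a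
suitable normalising element, and `p = 2` by the chain certificate of `MultChain.lean` along
`17 < L2(16) < Sp4(4) < He`.  All identities between words in the generators are checked on a base
of three points (`wv_eq`).
-/

set_option autoImplicit false

namespace Cfsg.Agent.Helper56.HeMult

open Cfsg.Spor Cfsg.Agent.Helper28 Cfsg.Agent.Helper28.HE Cfsg.Agent.Helper89

/-- Boolean test: both words have letters below 7 and agree on the base -/
noncomputable def eqC (w₁ w₂ : List ℕ) : Bool :=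
  letChk HEN.D.jc w₁ && letChk HEN.D.jc w₂ &&
    eqBase HEN.T w₁ w₂ [HENL.ov3 0, HENL.ov2 0, 0]

/-- Boolean test: both words have letters below 7 and differ on the base -/
noncomputable def neC (w₁ w₂ : List ℕ) : Bool :=
  letChk HEN.D.jc w₁ && letChk HEN.D.jc w₂ &&
    !(eqBase HEN.T w₁ w₂ [HENL.ov3 0, HENL.ov2 0, 0])

theorem wv_nil : wv [] = 1 := rfl

theorem wv_eqC (w₁ w₂ : List ℕ) (h : eqC w₁ w₂ = true) : wv w₁ = wv w₂ := by
  unfold eqC at h
  simp only [Bool.and_eq_true] at h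
  exact wv_eq w₁ w₂ h.1.1 h.1.2 h.2

theorem base_lt : ∀ b ∈ [HENL.ov3 0, HENL.ov2 0, 0], b < 8330 := by decide +kernel

theorem wv_neC (w₁ w₂ : List ℕ) (h : neC w₁ w₂ = true) : wv w₁ ≠ wv w₂ := by
  unfold neC at h
  simp only [Bool.and_eq_true, Bool.not_eq_true'] at h
  intro he
  have h1 := (letChk_iff _ _).mp h.1.1
  have h2 := (letChk_iff _ _).mp h.1.2
  have key : eqBase HEN.T w₁ w₂ [HENL.ov3 0, HENL.ov2 0, 0] = true := by
    unfold eqBase
    rw [listAll_iff]
    intro b hb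
    have hlt := base_lt b hb
    have e1 := HEN.cert.perm_list w₁ h1 ⟨b, hlt⟩
    have e2 := HEN.cert.perm_list w₂ h2 ⟨b, hlt⟩
    have he' : (w₁.map (coxVal He.edges He.extra HEN.gen HEN.D.jc)).prod =
        (w₂.map (coxVal He.edges He.extra HEN.gen HEN.D.jc)).prod := he
    rw [he'] at e1
    have e : walkA HEN.T w₁ b = walkA HEN.T w₂ b := e1.symm.trans e2
    show Nat.beq (walkA HEN.T w₁ b) (walkA HEN.T w₂ b) = true
    rw [e]
    exact Nat.beq_refl _
  rw [h.2] at key
  exact absurd key (by decide)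

theorem wv_single (k : ℕ) (hk : k < HEN.D.jc) : wv [k] = PresentedGroup.of (HEN.gen k) := by
  show ([k].map gv).prod = _
  rw [List.map_cons, List.map_nil, List.prod_cons, List.prod_nil, mul_one]
  exact coxVal_of k hk

theorem nthL_ge : ∀ (l : List (List ℕ)) (i : ℕ), l.length ≤ i → nthL l i = []
  | [], i, _ => nthL_nil i
  | _ :: _, 0, h => absurd h (by simp)
  | a :: l, i + 1, h => by
    rw [nthL_cons_succ]
    exact nthL_ge l i (by simpa using h)

/-- the four generators `x, u, v, w` of the chain -/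
noncomputable def lT : List He :=
  [wv (nthL symW 0), wv (nthL symW 2), wv (nthL symW 4), wv (nthL symW 6)]

theorem symW_inv : eqC (nthL symW 0 ++ nthL symW 1) [] = true ∧
    eqC (nthL symW 2 ++ nthL symW 3) [] = true ∧ eqC (nthL symW 4 ++ nthL symW 5) [] = true ∧
    eqC (nthL symW 6 ++ nthL symW 7) [] = true := by
  decide +kernel

theorem gl_odd {G : Type*} [Group G] (l : List G) (i : ℕ) : gl l (2 * i + 1) = (l.getD i 1)⁻¹ := by
  unfold gl
  rw [if_neg (by omega)]
  congr 2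
  omega

theorem symW_length : symW.length = 8 := rfl

theorem gl_eq (j : ℕ) : gl lT j = wv (nthL symW j) := by
  obtain ⟨i, rfl | rfl⟩ : ∃ i, j = 2 * i ∨ j = 2 * i + 1 := ⟨j / 2, by omega⟩
  · rw [Chain.gl_two_mul]
    by_cases hi : i < 4
    · interval_cases i <;> rfl
    · rw [List.getD_eq_default _ _ (by show 4 ≤ i; omega),
        nthL_ge symW _ (by rw [symW_length]; omega), wv_nil]
  · rw [gl_odd]
    by_cases hi : i < 4
    · have h := symW_inv
      interval_cases i
      · exact inv_eq_of_mul_eq_one_right (by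
          show wv (nthL symW 0) * wv (nthL symW 1) = 1
          rw [← wv_append, wv_eqC _ _ h.1, wv_nil])
      · exact inv_eq_of_mul_eq_one_right (by
          show wv (nthL symW 2) * wv (nthL symW 3) = 1
          rw [← wv_append, wv_eqC _ _ h.2.1, wv_nil])
      · exact inv_eq_of_mul_eq_one_right (by
          show wv (nthL symW 4) * wv (nthL symW 5) = 1
          rw [← wv_append, wv_eqC _ _ h.2.2.1, wv_nil])
      · exact inv_eq_of_mul_eq_one_right (by
          show wv (nthL symW 6) * wv (nthL symW 7) = 1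
          rw [← wv_append, wv_eqC _ _ h.2.2.2, wv_nil])
    · rw [List.getD_eq_default _ _ (by show 4 ≤ i; omega), inv_one,
        nthL_ge symW _ (by rw [symW_length]; omega), wv_nil]

/-- a word in the eight symbols as a word in the seven involutions -/
noncomputable def expW : List ℕ → List ℕ
  | [] => []
  | j :: w => nthL symW j ++ expW w

theorem ev_eq (w : List ℕ) : ev (gl lT) w = wv (expW w) := by
  induction w with
  | nil => exact wv_nil.symm
  | cons j w ih =>
    show gl lT j * ev (gl lT) w = wv (nthL symW j ++ expW w)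
    rw [wv_append, gl_eq, ih]

/-- a relator in the symbols holds -/
noncomputable def relOK (w : List ℕ) : Bool := eqC (expW w) []

theorem rels_ok : listAll (Chain.powW ps) relOK = true ∧ listAll L1.ws relOK = true ∧
    listAll L2.ws relOK = true ∧ listAll L3.ws relOK = true := by
  decide +kernel

theorem ev_one_of_relOK (w : List ℕ) (h : relOK w = true) : ev (gl lT) w = 1 := by
  rw [ev_eq, wv_eqC _ _ h, wv_nil]

theorem hE : ∀ w ∈ Chain.powW ps, ev (gl lT) w = 1 :=
  fun w hw => ev_one_of_relOK w ((listAll_iff _ _).mp rels_ok.1 w hw)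

theorem hW : ∀ d ∈ Ls, ∀ w ∈ d.ws, ev (gl lT) w = 1 := by
  intro d hd w hw
  simp only [Ls, List.mem_cons, List.not_mem_nil, or_false] at hd
  rcases hd with rfl | rfl | rfl | rfl
  · exact absurd hw (by simp [L0])
  · exact ev_one_of_relOK w ((listAll_iff _ _).mp rels_ok.2.1 w hw)
  · exact ev_one_of_relOK w ((listAll_iff _ _).mp rels_ok.2.2.1 w hw)
  · exact ev_one_of_relOK w ((listAll_iff _ _).mp rels_ok.2.2.2 w hw)

theorem genW_ok : eqC (expW (nthL genW 0)) [0] = true ∧ eqC (expW (nthL genW 1)) [1] = true ∧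
    eqC (expW (nthL genW 2)) [2] = true ∧ eqC (expW (nthL genW 3)) [3] = true ∧
    eqC (expW (nthL genW 4)) [4] = true ∧ eqC (expW (nthL genW 5)) [5] = true ∧
    eqC (expW (nthL genW 6)) [6] = true ∧
    listAll genW (fun w => listAll w (fun j => Nat.blt j 8)) = true := by
  decide +kernel

theorem ev_mem {G : Type*} [Group G] (g : ℕ → G) (w : List ℕ) (h : ∀ j ∈ w, j < 8) :
    ev g w ∈ Subgroup.closure (g '' Set.Iio 8) := by
  induction w with
  | nil => exact Subgroup.one_mem _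
  | cons j w ih =>
    exact Subgroup.mul_mem _ (Subgroup.subset_closure ⟨j, h j List.mem_cons_self, rfl⟩)
      (ih (fun k hk => h k (List.mem_cons_of_mem _ hk)))

theorem genW_length : genW.length = 7 := rfl

theorem wv_gen_mem (c : ℕ) (hc : c < 7) :
    wv [c] ∈ Subgroup.closure (gl lT '' Set.Iio 8) := by
  have h := genW_ok
  have hw : ∀ j ∈ nthL genW c, j < 8 := by
    intro j hj
    have h1 := (listAll_iff _ _).mp h.2.2.2.2.2.2.2 _
      (nthL_lt_mem genW c (by rw [genW_length]; exact hc))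
    exact Nat.blt_eq.mp ((listAll_iff _ _).mp h1 j hj)
  have e : wv [c] = ev (gl lT) (nthL genW c) := by
    rw [ev_eq]
    symm
    interval_cases c
    · exact wv_eqC _ _ h.1
    · exact wv_eqC _ _ h.2.1
    · exact wv_eqC _ _ h.2.2.1
    · exact wv_eqC _ _ h.2.2.2.1
    · exact wv_eqC _ _ h.2.2.2.2.1
    · exact wv_eqC _ _ h.2.2.2.2.2.1
    · exact wv_eqC _ _ h.2.2.2.2.2.2.1
  rw [e]
  exact ev_mem _ _ hw

theorem jc_eq : HEN.D.jc = 7 := by decide +kernel

theorem gen_top : Subgroup.closure (gl lT '' Set.Iio 8) = ⊤ := by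
  rw [eq_top_iff, ← PresentedGroup.closure_range_of]
  apply (Subgroup.closure_le _).mpr
  rintro _ ⟨x, rfl⟩
  have e0 : wv [0] = PresentedGroup.of He.Gen.a := wv_single 0 (by rw [jc_eq]; decide)
  have e1 : wv [1] = PresentedGroup.of He.Gen.b := wv_single 1 (by rw [jc_eq]; decide)
  have e2 : wv [2] = PresentedGroup.of He.Gen.c := wv_single 2 (by rw [jc_eq]; decide)
  have e3 : wv [3] = PresentedGroup.of He.Gen.d := wv_single 3 (by rw [jc_eq]; decide)
  have e4 : wv [4] = PresentedGroup.of He.Gen.e := wv_single 4 (by rw [jc_eq]; decide)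
  have e5 : wv [5] = PresentedGroup.of He.Gen.f := wv_single 5 (by rw [jc_eq]; decide)
  have e6 : wv [6] = PresentedGroup.of He.Gen.g := wv_single 6 (by rw [jc_eq]; decide)
  rw [SetLike.mem_coe]
  cases x
  · rw [← e0]; exact wv_gen_mem 0 (by decide)
  · rw [← e1]; exact wv_gen_mem 1 (by decide)
  · rw [← e2]; exact wv_gen_mem 2 (by decide)
  · rw [← e3]; exact wv_gen_mem 3 (by decide)
  · rw [← e4]; exact wv_gen_mem 4 (by decide)
  · rw [← e5]; exact wv_gen_mem 5 (by decide)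
  · rw [← e6]; exact wv_gen_mem 6 (by decide)

/-! ### the odd primes -/

theorem chk5 : eqC ((((a5 ++ a5) ++ a5) ++ a5) ++ a5) [] = true ∧
    eqC ((((b5 ++ b5) ++ b5) ++ b5) ++ b5) [] = true ∧ neC a5 [] = true ∧
    neC [] b5 = true ∧ neC a5 b5 = true ∧ neC (a5 ++ a5) b5 = true ∧
    neC ((a5 ++ a5) ++ a5) b5 = true ∧ neC (((a5 ++ a5) ++ a5) ++ a5) b5 = true ∧
    eqC (a5 ++ b5) (b5 ++ a5) = true ∧ eqC (t5 ++ t5) [] = true ∧
    eqC (((t5 ++ a5) ++ t5) ++ a5) [] = true ∧ eqC ((t5 ++ b5) ++ t5) b5 = true := by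
  decide +kernel

theorem chk3 : eqC ((a3 ++ a3) ++ a3) [] = true ∧ eqC ((b3 ++ b3) ++ b3) [] = true ∧
    neC (a3 ++ b3) (b3 ++ a3) = true ∧ eqC (a3 ++ (a3 ++ a3)) [] = true ∧
    eqC (b3 ++ (b3 ++ b3)) [] = true ∧
    eqC ((((a3 ++ b3) ++ (a3 ++ a3)) ++ (b3 ++ b3)) ++ a3)
      (a3 ++ (((a3 ++ b3) ++ (a3 ++ a3)) ++ (b3 ++ b3))) = true ∧
    eqC ((((a3 ++ b3) ++ (a3 ++ a3)) ++ (b3 ++ b3)) ++ b3)
      (b3 ++ (((a3 ++ b3) ++ (a3 ++ a3)) ++ (b3 ++ b3))) = true ∧
    eqC (n3 ++ n3) [] = true ∧ eqC ((n3 ++ a3) ++ n3) (a3 ++ a3) = true ∧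
    eqC ((n3 ++ b3) ++ n3) (b3 ++ b3) = true := by
  decide +kernel

theorem chk7 : eqC ((((((a7 ++ a7) ++ a7) ++ a7) ++ a7) ++ a7) ++ a7) [] = true ∧
    eqC ((((((b7 ++ b7) ++ b7) ++ b7) ++ b7) ++ b7) ++ b7) [] = true ∧
    neC (a7 ++ b7) (b7 ++ a7) = true ∧
    eqC ((((a7 ++ b7) ++ a7.reverse) ++ b7.reverse) ++ a7)
      (a7 ++ (((a7 ++ b7) ++ a7.reverse) ++ b7.reverse)) = true ∧
    eqC ((((a7 ++ b7) ++ a7.reverse) ++ b7.reverse) ++ b7)
      (b7 ++ (((a7 ++ b7) ++ a7.reverse) ++ b7.reverse)) = true ∧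
    eqC ((d7 ++ a7) ++ d7.reverse) (a7 ++ a7) = true ∧
    eqC ((d7 ++ b7) ++ d7.reverse) b7 = true ∧
    letChk HEN.D.jc a7 = true ∧ letChk HEN.D.jc b7 = true ∧ letChk HEN.D.jc d7 = true := by
  decide +kernel

theorem he_mult : Cfsg.HasCyclicSchurMultiplier He 1 := by
  have hfin : Finite He := finite
  have hcard : Nat.card He = 4030387200 := card_eq
  apply Stem.hasCyclicSchurMultiplier_one
  intro Γ _ _ σ hσ
  obtain ⟨hsurj, hc, hd⟩ := hσ
  apply Stem.ker_eq_bot_of_primes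
  intro p hp
  have hpf : Fact p.Prime := ⟨hp⟩
  by_cases h2 : p = 2
  · subst h2
    exact Chain.two_universal lT ps Ls ps_odd valid chained (by rw [hcard, prodN_eq])
      (by rw [lastK_eq]; exact gen_top) hE hW Γ σ hsurj hc hd
  by_cases h3 : p = 3
  · subst h3
    have h := chk3
    have hai : (wv a3)⁻¹ = wv (a3 ++ a3) :=
      inv_eq_of_mul_eq_one_right (by rw [← wv_append, wv_eqC _ _ h.2.2.2.1, wv_nil])
    have hbi : (wv b3)⁻¹ = wv (b3 ++ b3) :=
      inv_eq_of_mul_eq_one_right (by rw [← wv_append, wv_eqC _ _ h.2.2.2.2.1, wv_nil])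
    have hni : (wv n3)⁻¹ = wv n3 :=
      inv_eq_of_mul_eq_one_right (by rw [← wv_append, wv_eqC _ _ h.2.2.2.2.2.2.2.1, wv_nil])
    refine Stem.not_dvd_card_ker_of_extraspecial σ hsurj hc hd (wv a3) (wv b3) (wv n3)
      ?_ ?_ ?_ ?_ ?_ ?_ ?_ (by rw [hcard]; norm_num)
    · rw [pow_succ, pow_two, ← wv_append, ← wv_append, wv_eqC _ _ h.1, wv_nil]
    · rw [pow_succ, pow_two, ← wv_append, ← wv_append, wv_eqC _ _ h.2.1, wv_nil]
    · rw [← wv_append, ← wv_append]
      exact wv_neC _ _ h.2.2.1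
    · rw [hai, hbi]
      simp only [← wv_append]
      exact wv_eqC _ _ h.2.2.2.2.2.1
    · rw [hai, hbi]
      simp only [← wv_append]
      exact wv_eqC _ _ h.2.2.2.2.2.2.1
    · rw [hai, hni]
      simp only [← wv_append]
      exact wv_eqC _ _ h.2.2.2.2.2.2.2.2.1
    · rw [hbi, hni]
      simp only [← wv_append]
      exact wv_eqC _ _ h.2.2.2.2.2.2.2.2.2
  by_cases h5 : p = 5
  · subst h5
    have h := chk5
    have ha5 : (wv a5) ^ 5 = 1 := by
      rw [pow_succ, pow_succ, pow_succ, pow_two, ← wv_append, ← wv_append, ← wv_append,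
        ← wv_append, wv_eqC _ _ h.1, wv_nil]
    have hti : (wv t5)⁻¹ = wv t5 :=
      inv_eq_of_mul_eq_one_right (by
        rw [← wv_append, wv_eqC _ _ h.2.2.2.2.2.2.2.2.2.1, wv_nil])
    refine Stem.not_dvd_card_ker_of_rank_two σ hsurj hc hd 5 (by decide) (wv a5) (wv b5)
      (wv t5) ha5 ?_ ?_ ?_ ?_ ?_ ?_ (by rw [hcard]; norm_num)
    · rw [pow_succ, pow_succ, pow_succ, pow_two, ← wv_append, ← wv_append, ← wv_append,
        ← wv_append, wv_eqC _ _ h.2.1, wv_nil]
    · rw [← wv_nil]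
      exact wv_neC _ _ h.2.2.1
    · intro hmem
      obtain ⟨k, hk⟩ := Subgroup.mem_zpowers_iff.mp hmem
      have ha5z : (wv a5) ^ (5 : ℤ) = 1 := by
        have hz := zpow_natCast (wv a5) 5
        rw [ha5] at hz
        exact hz
      have hk5 : (wv a5) ^ (k % 5) = wv b5 := by
        rw [← zpow_eq_zpow_emod k ha5z]
        exact hk
      have h0 : 0 ≤ k % 5 := Int.emod_nonneg k (by norm_num)
      have h1 : k % 5 < 5 := Int.emod_lt_of_pos k (by norm_num)
      obtain ⟨i, hi⟩ := Int.eq_ofNat_of_zero_le h0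
      rw [hi, zpow_natCast] at hk5
      have hi5 : i < 5 := by omega
      interval_cases i
      · rw [pow_zero, ← wv_nil] at hk5
        exact wv_neC _ _ h.2.2.2.1 hk5
      · rw [pow_one] at hk5
        exact wv_neC _ _ h.2.2.2.2.1 hk5
      · rw [pow_two, ← wv_append] at hk5
        exact wv_neC _ _ h.2.2.2.2.2.1 hk5
      · rw [pow_succ, pow_two, ← wv_append, ← wv_append] at hk5
        exact wv_neC _ _ h.2.2.2.2.2.2.1 hk5
      · rw [pow_succ, pow_succ, pow_two, ← wv_append, ← wv_append, ← wv_append] at hk5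
        exact wv_neC _ _ h.2.2.2.2.2.2.2.1 hk5
    · rw [← wv_append, ← wv_append]
      exact wv_eqC _ _ h.2.2.2.2.2.2.2.2.1
    · rw [hti]
      refine eq_inv_of_mul_eq_one_left ?_
      rw [← wv_append, ← wv_append, ← wv_append, wv_eqC _ _ h.2.2.2.2.2.2.2.2.2.2.1, wv_nil]
    · rw [hti, ← wv_append, ← wv_append]
      exact wv_eqC _ _ h.2.2.2.2.2.2.2.2.2.2.2
  by_cases h7 : p = 7
  · subst h7
    have h := chk7
    have hai : (wv a7)⁻¹ = wv a7.reverse := (wv_reverse a7 h.2.2.2.2.2.2.2.1).symm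
    have hbi : (wv b7)⁻¹ = wv b7.reverse := (wv_reverse b7 h.2.2.2.2.2.2.2.2.1).symm
    have hdi : (wv d7)⁻¹ = wv d7.reverse := (wv_reverse d7 h.2.2.2.2.2.2.2.2.2).symm
    refine Stem7.not_dvd_card_ker_of_extraspecial7 σ hsurj hc hd (wv a7) (wv b7) (wv d7)
      ?_ ?_ ?_ ?_ ?_ ?_ ?_ (by rw [hcard]; norm_num)
    · rw [pow_succ, pow_succ, pow_succ, pow_succ, pow_succ, pow_two, ← wv_append, ← wv_append,
        ← wv_append, ← wv_append, ← wv_append, ← wv_append, wv_eqC _ _ h.1, wv_nil]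
    · rw [pow_succ, pow_succ, pow_succ, pow_succ, pow_succ, pow_two, ← wv_append, ← wv_append,
        ← wv_append, ← wv_append, ← wv_append, ← wv_append, wv_eqC _ _ h.2.1, wv_nil]
    · rw [← wv_append, ← wv_append]
      exact wv_neC _ _ h.2.2.1
    · rw [hai, hbi]
      simp only [← wv_append]
      exact wv_eqC _ _ h.2.2.2.1
    · rw [hai, hbi]
      simp only [← wv_append]
      exact wv_eqC _ _ h.2.2.2.2.1
    · rw [hdi]
      simp only [← wv_append]
      exact wv_eqC _ _ h.2.2.2.2.2.1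
    · rw [hdi]
      simp only [← wv_append]
      exact wv_eqC _ _ h.2.2.2.2.2.2.1
  · refine Stem.not_dvd_card_ker_of_sq σ hc hd p ?_
    rw [hcard]
    intro hdvd
    have hN : (4030387200 : ℕ) = 2 ^ 10 * 3 ^ 3 * 5 ^ 2 * 7 ^ 3 * 17 := by norm_num
    have hp1 : p ∣ 2 ^ 10 * 3 ^ 3 * 5 ^ 2 * 7 ^ 3 * 17 := by
      rw [← hN]
      exact dvd_trans (dvd_pow_self p (by norm_num)) hdvd
    rcases (Nat.Prime.dvd_mul hp).mp hp1 with hp2 | hp17
    · rcases (Nat.Prime.dvd_mul hp).mp hp2 with hp3 | hp7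
      · rcases (Nat.Prime.dvd_mul hp).mp hp3 with hp4 | hp5
        · rcases (Nat.Prime.dvd_mul hp).mp hp4 with hp6 | hp3'
          · exact h2 ((Nat.prime_dvd_prime_iff_eq hp Nat.prime_two).mp (hp.dvd_of_dvd_pow hp6))
          · exact h3 ((Nat.prime_dvd_prime_iff_eq hp Nat.prime_three).mp
              (hp.dvd_of_dvd_pow hp3'))
        · exact h5 ((Nat.prime_dvd_prime_iff_eq hp Nat.prime_five).mp (hp.dvd_of_dvd_pow hp5))
      · exact h7 ((Nat.prime_dvd_prime_iff_eq hp (by norm_num)).mp (hp.dvd_of_dvd_pow hp7))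
    · have h17 : p = 17 := (Nat.prime_dvd_prime_iff_eq hp (by norm_num)).mp hp17
      rw [h17] at hdvd
      norm_num at hdvd

end Cfsg.Agent.Helper56.HeMult
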