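import Cfsg.Agent.Helper56.He.MultChainData

/-! # Chain certificate for the Held group along `17 < L2(16) < Sp4(4) < He` (helper56)

Generated data in the format of `Cfsg.Agent.Helper89.Chain`: labelled coset tables for the four
levels (17, 240, 240 and 4116 rows) on generators `x, u, v, w` of orders `17, 5, 3, 3`
(symbols `2 i`, `2 i + 1` for the `i`-th generator and its inverse).  This file: the initial check and the closing scans of the last level. -/

set_option autoImplicit false
set_option maxRecDepth 100000

namespace Cfsg.Agent.Helper56.HeMult

open Cfsg.Agent.Helper89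

theorem pre3_ok : LT.preChk 4116 8 (tbl 13 8 tab3) (tbl 21 8 ltab3) (vec 13 par3) (vec 4 gam3) [0, 1, 2, 3, 4, 5] = some E3_0 := by
  decide +kernel

theorem cl3_ok : Level.closeAll (tbl 13 8 tab3) (tbl 21 8 ltab3) 8 4116 (Level.relsOf ex3 ws3) cl3 21 = true := by
  decide +kernel

end Cfsg.Agent.Helper56.HeMult
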